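import Cfsg.Agent.H6.U5.W7

/-! The Weil characters of an overgroup of the torus `43` in `SU_7(2)` have no trivial constituent. -/

set_option autoImplicit false
set_option linter.unusedSectionVars false

namespace Cfsg.Agent.H6.U7

open Module LinearMap Finset H5.U H6.S5 U5
open scoped Classical

theorem idem_zero {W : Type*} [AddCommGroup W] [Module ℂ W] [FiniteDimensional ℂ W] {p : End ℂ W}
    (hp : p * p = p) (e : trace ℂ _ p = 0) : p = 0 := by
  have := rk_res hp
  rw [e, Nat.cast_eq_zero, Submodule.finrank_eq_zero, range_eq_bot] at this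
  exact this

variable {F K : Type*} [Field F] [Fintype F] [StarRing F] [NStar F] [Field K] [Algebra F K] [Fintype K]
  [StarRing K] [StarModule F K] [NStar K] {h : HF F K} {Ψ : AddChar F ℂ} {n : ℕ}
  {b : Basis K ℂ (End ℂ (Fin n → ℂ))} {L : Subgroup (K ≃ₗ[F] K)} [Fintype L]
  {ρ : Representation ℂ L (Fin n → ℂ)} {γ : K} {T : Subgroup (U1 K)} {z z' : U1 F}
  {w : WL h Ψ b ρ} {φ : L} {σ : K →ₐ[F] K} {k : (U1 F →* ℂˣ) → ℕ} {η : U1 F →* ℂˣ}

variable (Ψ h) in
/-- coefficients of the Weil operators -/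
noncomputable def cf (n : ℕ) (s : U1 K) (y : K) : ℂ :=
  if (s.1 : K) = 1 then (if y = 0 then 1 else 0) else -(n : ℂ)⁻¹ * Ψ (h y ((1 - (s.1 : K))⁻¹ * y))

theorem R_cf (w : WD h Ψ b) (s : U1 K) : w.R s = ∑ y, cf h Ψ n s y • b y := by
  change Ro h Ψ b s.1 = _
  unfold Ro cf
  split_ifs
  · simp [w.hs.one]
  · simp only [Ga, smul_sum, smul_smul]

variable (c : WT w T φ σ k) (hv : Nat.card T * Nat.card (U1 F) = n + 1)
include c hv

theorem WT.eT (e : k η = 1 ∨ η = 1) (g : L) :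
    ρ g * ((∑ a : T, w.R a) * w.p η) = (∑ a : T, w.R a) * w.p η * ρ g := by
  have t0 : (Nat.card T : ℂ) ≠ 0 := by simp
  set E : End ℂ (Fin n → ℂ) := (Nat.card T : ℂ)⁻¹ • ∑ a : T, w.R a with hE
  have e1 : ∀ a : T, w.R a * E = E := fun a => by
    rw [hE, mul_smul_comm, mul_sum, ← Equiv.sum_comp (Equiv.mulLeft a) fun a : T => w.R a]; simp
  have e2 : E * E = E := by
    nth_rw 1 [hE]
    simp [sum_mul, e1, ← Nat.cast_smul_eq_nsmul ℂ, smul_smul]
  have e3 : E * w.p η = w.p η * E := by simp [hE, sum_mul, mul_sum, w.R_comm]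
  have e4 : E * w.p η * (E * w.p η) = E * w.p η := by
    rw [mul_assoc, ← mul_assoc (w.p η), ← e3, mul_assoc, w.idem, ← mul_assoc, e2]
  have e5 : trace ℂ _ (E * w.p η) = 1 - if η = 1 then 1 else 0 := by
    rw [hE, smul_mul_assoc, sum_mul, map_smul, map_sum, ← add_sum_erase _ _ (mem_univ 1),
      sum_congr rfl fun a ha => w.tr_p fun e => ne_of_mem_erase ha (Subtype.ext (c.bot _ a.2 e)),
      OneMemClass.coe_one, map_one, one_mul, w.rk hv, sum_const, card_erase_of_mem (mem_univ _), card_univ,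
      ← Nat.card_eq_fintype_card, nsmul_eq_mul, Nat.cast_pred Nat.card_pos, smul_eq_mul]
    field_simp; ring
  have key : ρ g * (E * w.p η) = E * w.p η * ρ g := by
    by_cases e0 : η = 1
    · rw [idem_zero e4 (by rw [e5, if_pos e0, sub_self])]; simp
    have e' := ((c.sh η).2.resolve_left (by have := e.resolve_right e0; omega)).2.2
    choose f hf using fun a : T => c.mem a a.2
    have a1 : av ρ * E = av ρ := by
      simp [hE, mul_sum, ← hf, av_mul, ← Nat.cast_smul_eq_nsmul ℂ, smul_smul]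
    have a2 : E * av ρ = av ρ := by
      simp [hE, sum_mul, ← hf, mul_av, ← Nat.cast_smul_eq_nsmul ℂ, smul_smul]
    have a3 := av_comm (w.cm (η := η))
    have a4 : E * w.p η - av ρ * w.p η = 0 := idem_zero (by
      rw [mul_sub, sub_mul, sub_mul, e4, mul_assoc (av ρ), ← mul_assoc (w.p η), ← e3, mul_assoc E _ (w.p η),
        w.idem, ← mul_assoc, a1, mul_assoc E, ← mul_assoc (w.p η), ← a3, mul_assoc (av ρ), w.idem,
        ← mul_assoc E, a2, mul_assoc (av ρ), ← mul_assoc (w.p η), ← a3, mul_assoc (av ρ) _ (w.p η), w.idem,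
        ← mul_assoc, av_idem]
      abel) (by simp [e5, e0, w.tr_av e'])
    rw [sub_eq_zero.1 a4, ← mul_assoc, mul_av, mul_assoc, ← w.cm, ← mul_assoc, av_mul]
  have : ∑ a : T, w.R a = (Nat.card T : ℂ) • E := by rw [hE, smul_inv_smul₀ t0]
  clear_value E
  rw [this, smul_mul_assoc, mul_smul_comm, key, smul_mul_assoc]

theorem WT.eT' (hZ : Nat.card (U1 F) = 3) (hΨ : ∀ x, star (Ψ x) = Ψ x) (e : k η = 1) (g : L) :
    ρ g * ∑ a : T, w.R a = (∑ a : T, w.R a) * ρ g := by
  have := NeZero.mk (Monoid.exponent_ne_zero_of_finite (G := U1 F))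
  have cd := (CommGroup.card_monoidHom_of_hasEnoughRootsOfUnity (U1 F) ℂ).trans hZ
  have η1 := ((c.sh η).2.resolve_left (by omega)).2.1
  have := Fact.mk Nat.prime_three
  have a1 : ∀ η : U1 F →* ℂˣ, (∑ a : T, w.R a) * w.p η = ∑ y, ((Fintype.card (U1 F) : ℂ)⁻¹ *
      ∑ a : T, ∑ z : U1 F, (η z⁻¹ : ℂ) * cf h Ψ n (a * io K z) y) • b y := fun η => by
    simp only [WD.p, U5.pr, mul_smul, sum_smul, ← smul_sum, mul_smul_comm, sum_mul, mul_sum,
      MonoidHom.comp_apply, ← map_mul w.R]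
    simp only [R_cf, smul_sum]
    exact (sum_congr rfl fun _ _ => sum_comm).trans (sum_comm.trans (sum_congr rfl fun _ _ => sum_comm))
  rw [← mul_one (∑ a : T, w.R a), ← sum_pr (w.R.comp (io K (F := F))), mul_sum, mul_sum, sum_mul]
  refine sum_congr rfl fun η' _ => ?_
  obtain ⟨i, hi, rfl⟩ := mem_image.1 ((mem_zpowers_iff_mem_range_orderOf).1
    (mem_zpowers_of_prime_card cd η1 (g' := η')))
  rw [orderOf_eq_prime (p := 3) (by rw [← cd, pow_card_eq_one']) η1, Finset.mem_range] at hi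
  interval_cases i
  · exact WT.eT c hv (.inr (pow_zero _)) g
  · exact WT.eT c hv (.inl (by rwa [pow_one])) g
  have a2 := WT.eT c hv (.inl e) g
  change ρ g * (_ * w.p _) = _ * w.p _ * _
  rw [a1] at a2 ⊢
  refine (comm_iff (B := ρ.toHomUnits g) (w.int' g)).2 fun y => ?_
  have a3 : ∀ z : U1 F, star (η z⁻¹ : ℂ) = (η ^ 2) z⁻¹ := fun z => by
    have a4 : (η z⁻¹ : ℂ) ^ 3 = 1 := by rw [← Units.val_pow_eq_pow_val, ← map_pow, ← hZ, pow_card_eq_one']; simp
    rw [Complex.star_def, ← Complex.inv_eq_conj (Complex.norm_eq_one_of_pow_eq_one a4 (by simp)),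
      MonoidHom.pow_apply, Units.val_pow_eq_pow_val]
    exact inv_eq_of_mul_eq_one_right (by rw [← a4]; ring)
  have a4 : ∀ s y, star (cf h Ψ n s y) = cf h Ψ n s y := fun s y => by
    unfold cf; split_ifs <;> simp [hΨ, -RCLike.star_def]
  simpa only [star_mul', star_sum, a3, a4, star_inv₀, star_natCast] using
    congrArg star ((comm_iff (B := ρ.toHomUnits g) (w.int' g)).1 a2 y)

theorem WT.inv_Th (hZ : Nat.card (U1 F) = 3) (hΨ : ∀ x, star (Ψ x) = Ψ x) (e : k η = 1) (z : U1 F) :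
    U5.Inv L fun y => ∑ γ ∈ Bl T z, Ψ (h y ((γ + 1) * y)) := by
  have nm : ∀ a : T, a ∈ univ.filter (· ≠ 1) → _ := fun a ha =>
    c.nm (z := z) a.2 fun e => (mem_filter.1 ha).2 (Subtype.ext e)
  have a1 : ∑ y, (∑ γ ∈ Bl T z, Ψ (h y ((γ + 1) * y))) • b y =
      (-n : ℂ) • ((∑ a : T, w.R a - 1) * w.R (io K z)) := by
    rw [← add_sum_erase _ _ (mem_univ (1 : T)), OneMemClass.coe_one, map_one, add_sub_cancel_left, sum_mul,
      ← filter_ne', smul_sum]
    simp only [Bl, sum_image fun a ha a' ha' e =>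
      Subtype.ext (mul_right_cancel (cay_inj (nm a ha) (nm a' ha') e)), sum_smul, ← map_mul w.R]
    rw [sum_comm]
    refine sum_congr rfl fun a ha => ?_
    have := ne1 (nm a ha)
    simp only [R_cf, smul_sum, smul_smul, cf, if_neg (sub_ne_zero.1 this).symm, neg_mul_neg,
      mul_inv_cancel_left₀ w.hs.n0, neg_mul, mul_neg, neg_neg]
    rw [show cay (a.1 * io K z) + 1 = (1 - ((a.1 * io K z).1 : K))⁻¹ by rw [cay]; field_simp; ring]
  have a2 : ∀ g : L, ρ g * w.R (io K z) = w.R (io K z) * ρ g := fun g => Ro_comm' (w.le g.2) (w.int' g) _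
  refine w.inv_iff.2 ⟨fun g => ?_, fun z' => ?_⟩ <;> rw [a1, mul_smul_comm, smul_mul_assoc, ← mul_assoc]
  · rw [mul_sub, WT.eT' c hv hZ hΨ e, mul_one, sub_mul, mul_assoc, a2, mul_assoc, sub_mul]; simp
  · simp only [mul_sub, sub_mul, mul_sum, sum_mul, ← map_mul, mul_one, one_mul, mul_comm z', mul_comm (io K z'),
      mul_right_comm _ (io K z')]

theorem WT.two (hq : Fintype.card F = 2 ^ 2) (hst : ∀ t : F, star t = t ^ 2) (hT : Nat.card T = 43)
    (dec : ∀ s : U1 K, ∃ a ∈ T, ∃ z : U1 F, s = a * io K z) (e : k η = 1) : False := by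
  have hZ : Nat.card (U1 F) = 3 := by
    rw [card_U1, Nat.pow_left_injective two_ne_zero (show Nat.card (F0 F) ^ 2 = 2 ^ 2 by
      simp only [← card_eq_sq, ← hq, Nat.card_eq_fintype_card (α := F)])]
  have h2 : (2 : F) = 0 := by
    have := FiniteField.cast_card_eq_zero F
    rw [hq] at this; exact pow_eq_zero_iff (two_ne_zero) |>.1 (by exact_mod_cast this)
  have h2K : ∀ x : K, x + x = 0 := fun x => by rw [← two_smul F, h2, zero_smul]
  have hΨ : ∀ x, star (Ψ x) = Ψ x := fun x => by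
    have : Ψ x * Ψ x = 1 := by rw [← Ψ.map_add_eq_mul, ← two_mul, h2, zero_mul, Ψ.map_zero_eq_one]
    rcases mul_self_eq_one_iff.1 this with e | e <;> simp [e]
  have : Nontrivial (U1 F) := Finite.one_lt_card_iff_nontrivial.1 (by omega)
  obtain ⟨z, z1⟩ := exists_ne (1 : U1 F)
  obtain ⟨ω, hω⟩ := exists_tr_one F
  have nb : ∀ {z : U1 F} {γ}, γ ∈ Bl T z → γ + star γ = -1 ∧ γ ∉ (⊥ : Subalgebra F K) := fun {z γ} hγ => by
    obtain ⟨a, ha, a1, rfl⟩ := mem_Bl.1 hγ
    exact cay_mem (c.nm ha a1)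
  have hω' : algebraMap F K ω + star (algebraMap F K ω) = -1 := by
    rw [← algebraMap_star_comm, ← map_add, hω, map_one]; linear_combination h2K 1
  let N : K → ℕ := fun γ => #((Bl T z ×ˢ Bl T z).filter fun x => x.1 + x.2 + algebraMap F K ω = γ)
  have hI := WT.inv_Th c hv hZ hΨ e z
  have k1 : ∀ γ : K, γ + star γ = -1 → ∑ y, (∑ γ ∈ Bl T z, Ψ (h y ((γ + 1) * y))) ^ 2 *
      Ψ (h y (algebraMap F K ω * y)) * Ψ (h y (γ * y)) = N γ * ((n : ℂ) ^ 2 + n) - #(Bl T z ×ˢ Bl T z) * n :=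
    fun γ hγ => by
      rw [sum_congr rfl fun y _ => show _ = ∑ x ∈ Bl T z ×ˢ Bl T z,
          Ψ (h y ((x.1 + 1 + (x.2 + 1) + algebraMap F K ω + γ) * y)) by
        rw [pow_two, sum_mul_sum]; simp only [sum_mul, sum_product, ← Ψ.map_add_eq_mul, ← h.add_right, ← add_mul],
        sum_comm, sum_congr rfl fun x hx => w.gauss (by
        have a1 := (nb (mem_product.1 hx).1).1
        have a2 := (nb (mem_product.1 hx).2).1
        simp only [star_add, star_one]
        linear_combination a1 + a2 + hω' + hγ)]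
      simp only [N, card_filter, Nat.cast_sum, sum_mul, ← nsmul_eq_mul, ← sum_const, ← sum_sub_distrib]
      refine sum_congr rfl fun x _ => ?_
      rw [if_congr (show x.1 + 1 + (x.2 + 1) + algebraMap F K ω + γ = 0 ↔ x.1 + x.2 + algebraMap F K ω = γ from
        ⟨fun e => by linear_combination e - h2K 1 - h2K γ, fun e => by linear_combination e + h2K 1 + h2K γ⟩) rfl rfl]
      split_ifs <;> simp
  have k2 : ∀ z', ∀ γ ∈ Bl T z', ∀ γ' ∈ Bl T z', N γ = N γ' := fun z' γ hγ γ' hγ' => by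
    have b1 := k1 γ (nb hγ).1
    have b2 := k1 γ' (nb hγ').1
    obtain ⟨a, ha, a1, rfl⟩ := mem_Bl.1 hγ
    obtain ⟨a', ha', a2, rfl⟩ := mem_Bl.1 hγ'
    have e2 : a * io K z' = a' * io K z' * (a / a') := by rw [mul_right_comm, mul_div_cancel]
    have := c.inv (c.nm (z := z') ha' a2) (div_mem ha ha') (e2 ▸ c.nm ha a1) _
      (show U5.Inv L fun y => (∑ γ ∈ Bl T z, Ψ (h y ((γ + 1) * y))) ^ 2 * Ψ (h y (algebraMap F K ω * y)) from
        ⟨fun g hg y => by
          beta_reduce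
          rw [show ∑ γ ∈ Bl T z, _ = _ from hI.1 g hg y, ← Algebra.smul_def, ← Algebra.smul_def, ← map_smul,
            w.le hg],
        fun u y => by
          beta_reduce
          rw [show ∑ γ ∈ Bl T z, _ = _ from hI.2 u y, mul_smul_comm, h.smul_left, h.smul_right, ← mul_assoc,
            show (u.1 : F) * star (u.1 : F) = 1 from u.2, one_mul]⟩)
    rw [← e2, b1, b2, sub_left_inj, mul_left_inj' (by
      rw [pow_two, ← mul_add_one]; exact mul_ne_zero w.hs.n0 (by exact_mod_cast n.succ_ne_zero))] at this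
    exact_mod_cast this
  have cB : ∀ z, #(Bl T z) = 42 := fun z => by have := c.card_Bl (z := z); omega
  have k3 : ∀ z', ∀ γ ∈ Bl T z', 2 ∣ N γ := fun z' γ hγ => by
    rw [← ZMod.natCast_eq_zero_iff, show N γ = ∑ _ ∈ _, 1 from card_eq_sum_ones _, Nat.cast_sum]
    refine sum_involution (fun x _ => x.swap) (fun _ _ => by decide) (fun x hx _ e => (nb hγ).2 ?_)
      (fun x hx => by simpa [and_comm, add_comm] using hx) fun _ _ => rfl
    rw [← (mem_filter.1 hx).2, show x.2 = x.1 from congrArg Prod.fst e, h2K, zero_add]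
    exact Subalgebra.algebraMap_mem _ _
  have k4 : ∀ z', 84 ∣ ∑ γ ∈ Bl T z', N γ := fun z' => by
    obtain ⟨γ, hγ⟩ := card_pos.1 (show 0 < #(Bl T z') by rw [cB]; omega)
    rw [sum_congr rfl fun γ' h' => k2 z' γ' h' γ hγ, sum_const, cB, smul_eq_mul]
    exact mul_dvd_mul_left 42 (k3 z' γ hγ)
  have k5 := card_eq_sum_card_fiberwise (s := (Bl T z).offDiag) (t := univ.biUnion (Bl T : U1 F → _))
    (f := fun x => x.1 + x.2 + algebraMap F K ω) fun x hx => by
      obtain ⟨x1, x2, x3⟩ := mem_offDiag.1 hx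
      obtain ⟨s, hs, e⟩ := exists_cay (F := F) (γ := x.1 + x.2 + algebraMap F K ω) (by
        simp only [star_add]; linear_combination (nb x1).1 + (nb x2).1 + hω' - h2K 1) fun e => by
          obtain ⟨u, hu⟩ := Algebra.mem_bot.1 (sub_mem e (Subalgebra.algebraMap_mem _ ω))
          rw [add_sub_cancel_right] at hu
          have : u * (u - 1) = 0 := (algebraMap F K).injective (by
            rw [mul_sub, ← pow_two, ← hst, map_sub, algebraMap_star_comm, mul_one, hu, star_add, map_zero]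
            linear_combination (nb x1).1 + (nb x2).1 - h2K x.1 - h2K x.2 - h2K 1)
          rcases mul_eq_zero.1 this with rfl | u1
          · exact x3 (by rw [map_zero] at hu; linear_combination -hu - h2K x.2)
          obtain ⟨a, ha, a1, e⟩ := mem_Bl.1 x2
          have := c.disj x1 (mem_Bl.2 ⟨a⁻¹, inv_mem ha, by simpa, show cay (a⁻¹ * io K z⁻¹) = _ by
            have := ne1 (c.nm (z := z) ha a1)
            have t2 : ((a * io K z).1 : K) - 1 = 1 - (a * io K z).1 := by linear_combination h2K _ - h2K 1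
            rw [show x.1 = x.2 + 1 by
              rw [sub_eq_zero.1 u1, map_one] at hu; linear_combination -hu - h2K x.2, ← e, map_inv, ← mul_inv,
              cay, cay, Subgroup.coe_inv, Units.val_inv_eq_inv_val]
            field_simp
            rw [t2]; field_simp; ring⟩)
          exact z1 (by rw [← pow_card_eq_one' (x := z), hZ, pow_succ, pow_two, eq_inv_iff_mul_eq_one.1 this, one_mul])
      obtain ⟨a, ha, z', rfl⟩ := dec s
      exact mem_coe.2 (mem_biUnion.2 ⟨z', mem_univ _, mem_Bl.2 ⟨a, ha, by rintro rfl; exact hs ⟨z', by simp⟩, e⟩⟩)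
  rw [sum_biUnion fun z _ z' _ e => disjoint_left.2 fun γ h1 h2 => e (c.disj h1 h2), offDiag_card, cB,
    sum_congr rfl fun z' _ => sum_congr rfl fun γ hγ => show _ = N γ from congrArg card (Finset.ext fun x => by
      simp only [mem_filter, mem_offDiag, mem_product]
      exact ⟨fun e => ⟨⟨e.1.1, e.1.2.1⟩, e.2⟩, fun e => ⟨⟨e.1.1, e.1.2, fun e' => (nb hγ).2 (by
        rw [← e.2, e', h2K, zero_add]; exact Subalgebra.algebraMap_mem _ _)⟩, e.2⟩⟩)] at k5
  exact absurd (k5 ▸ dvd_sum fun z' _ => k4 z') (by decide)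

end Cfsg.Agent.H6.U7
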