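import Cfsg.Agent.H6.U5.X1
import Cfsg.Agent.H1.S7.D2

/-! Arithmetic of the cyclic torus of `SU_7(q)`. -/

set_option autoImplicit false
set_option linter.unusedSectionVars false

namespace Cfsg.Agent.H6.U7

open Module LinearMap Finset H5.U H6.S5 Subgroup U5
open scoped Classical

/-- the orders -/
structure Nu (q d t : ℕ) : Prop where
  q2 : 2 ≤ q
  ht : d * t * (q + 1) = q ^ 7 + 1
  hd : d = 1 ∧ q % 7 ≠ 6 ∨ d = 7 ∧ q % 7 = 6
  cop : t.Coprime (q + 1)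
  c7 : t.Coprime 7

theorem exists_nu {q : ℕ} (q2 : 2 ≤ q) : ∃ d t, Nu q d t := by
  have k : ∀ {t u : ℕ}, t.Coprime 7 → ∀ d, d * t = (q + 1) * u + 7 → t.Coprime (q + 1) := fun {t u} c d e =>
    Nat.eq_one_of_dvd_coprimes c (Nat.gcd_dvd_left _ _) ((Nat.dvd_add_right
      ((Nat.gcd_dvd_right _ _).mul_right u)).1 (e ▸ (Nat.gcd_dvd_left _ _).mul_left d))
  by_cases e : q % 7 = 6
  · obtain ⟨m, rfl⟩ : ∃ m, q = 7 * m + 6 := ⟨q / 7, by omega⟩
    have c : (7 * ((m + 1) * (2401 * m ^ 5 + 9604 * m ^ 4 + 15435 * m ^ 3 + 12446 * m ^ 2 + 5033 * m + 816))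
      + 1).Coprime 7 := by simp
    exact ⟨7, _, q2, by ring, .inr ⟨rfl, e⟩, k (u := 7 * (2401 * m ^ 5 + 9604 * m ^ 4 + 15435 * m ^ 3 +
      12446 * m ^ 2 + 5033 * m + 816)) c 7 (by ring), c⟩
  · obtain ⟨s, rfl⟩ : ∃ s, q = s + 2 := ⟨q - 2, by omega⟩
    have c : ((s + 3) * (s ^ 5 + 8 * s ^ 4 + 27 * s ^ 3 + 46 * s ^ 2 + 41 * s + 12) + 7).Coprime 7 := by
      rw [Nat.coprime_comm, Nat.prime_seven.coprime_iff_not_dvd, ← ZMod.natCast_eq_zero_iff]
      have : ((s + 3 : ℕ) : ZMod 7) ≠ 0 := by rw [Ne, ZMod.natCast_eq_zero_iff]; omega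
      push_cast at this ⊢
      generalize (s : ZMod 7) = x at *
      revert x; decide
    exact ⟨1, _, q2, by ring, .inl ⟨rfl, e⟩, k c 1 (one_mul _), c⟩

theorem Nu.val {s d t : ℕ} (nu : Nu (s + 2) d t) :
    d * t = s ^ 6 + 11 * s ^ 5 + 51 * s ^ 4 + 127 * s ^ 3 + 179 * s ^ 2 + 135 * s + 43 :=
  Nat.eq_of_mul_eq_mul_right (m := s + 2 + 1) (by omega) (nu.ht.trans (by ring))

theorem Nu.prime {q d t : ℕ} (nu : Nu q d t) : ∃ l, l.Prime ∧ 11 ≤ l ∧ l ∣ t := by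
  obtain ⟨s, rfl⟩ : ∃ s, q = s + 2 := ⟨q - 2, by have := nu.q2; omega⟩
  have a := nu.val
  obtain ⟨l, hl, e⟩ := Nat.exists_prime_and_dvd (n := t) (by
    rintro rfl
    have := nu.hd
    omega)
  refine ⟨l, hl, ?_, e⟩
  have e1 := (e.mul_left d).trans a.dvd
  have e2 := hl.two_le
  have e3 : l ≠ 7 := by rintro rfl; exact Nat.prime_seven.coprime_iff_not_dvd.1 nu.c7.symm e
  by_contra! lt
  rw [← ZMod.natCast_eq_zero_iff] at e1
  push_cast at e1
  obtain rfl | rfl | rfl : l = 2 ∨ l = 3 ∨ l = 5 := by interval_cases l <;> first | contradiction | simp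
  · revert e1; generalize (s : ZMod 2) = x; revert x; decide
  · revert e1; generalize (s : ZMod 3) = x; revert x; decide
  · revert e1; generalize (s : ZMod 5) = x; revert x; decide

variable {F K : Type*} [Field F] [Fintype F] [StarRing F] [NStar F] [Field K] [Algebra F K] [Fintype K]
  [StarRing K] [StarModule F K] [NStar K] {q d t : ℕ} {σ : K →ₐ[F] K} {s u : U1 K}

variable (hK : finrank F K = 7) (hq : Fintype.card F = q ^ 2) (nu : Nu q d t)
include hq hK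

theorem cardK : Nat.card (U1 K) = q ^ 7 + 1 := by
  rw [card_U1, card_F0_ext (F := F), hK, Nat.add_right_cancel ((card_U1 (K := F)).symm.trans (cardF hq))]

theorem fix_mem (s1 : σ ≠ 1) (e : sg σ s = s) : s ∈ (io K (F := F)).range := mem_io.2 (by_contra fun k =>
  s1 (AlgHom.ext (H2.S7.top_of hK (S := σ.equalizer 1) k (congrArg (fun x : U1 K => (x.1 : K)) e))))

include nu

theorem card_T1 : Nat.card (T1 K t) = t := by
  rw [IsCyclic.card_powMonoidHom_ker, cardK hK hq, ← nu.ht, mul_comm d, mul_assoc, Nat.gcd_mul_right_left]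

theorem norm_iff : Algebra.norm F (u.1 : K) = 1 ↔ u ^ (d * t) = 1 := by
  have e : ∑ i ∈ range 7, (q ^ 2) ^ i = d * t * ((q + 1) * (q ^ 5 + q ^ 3 + q) + 1) :=
    Nat.eq_of_mul_eq_mul_right q.succ_pos (by
      rw [mul_right_comm, nu.ht]; simp [sum_range_succ]; ring)
  rw [← (algebraMap F K).injective.eq_iff, FiniteField.algebraMap_norm_eq_pow_sum, hK,
    Nat.card_eq_fintype_card, hq, e, map_one, ← Units.val_pow_eq_pow_val, Units.val_eq_one, ← Subgroup.coe_pow,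
    OneMemClass.coe_eq_one, mul_add, ← mul_assoc, nu.ht, ← cardK hK hq, pow_add, pow_mul, pow_card_eq_one',
    one_pow, one_mul, mul_one]

omit hK in
theorem T1_bot (hs : s ∈ T1 K t) (e : s ∈ (io K (F := F)).range) : s = 1 := by
  obtain ⟨z, rfl⟩ := e
  exact (pow_eq_one_iff_of_coprime nu.cop).1 ⟨hs, by rw [← map_pow, ← cardF hq, pow_card_eq_one', map_one]⟩

omit hK in
theorem pow_d {z : U1 F} (e : z ^ 7 = 1) : z ^ d = 1 := by
  rcases nu.hd with ⟨rfl, h⟩ | ⟨rfl, -⟩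
  · rw [pow_one]
    exact (pow_eq_one_iff_of_coprime (Nat.prime_seven.coprime_iff_not_dvd.2 (show ¬ 7 ∣ q + 1 by omega))).1
      ⟨e, by rw [← cardF hq, pow_card_eq_one']⟩
  · exact e

theorem dec_T1 (e : u ^ (d * t) = 1) : ∃ a ∈ T1 K t, ∃ z : U1 F, u = a * io K z := by
  rcases nu.hd with ⟨rfl, -⟩ | ⟨rfl, h⟩
  · exact ⟨u, by simpa using e, 1, by simp⟩
  obtain ⟨j, -, hj⟩ := Nat.exists_mul_mod_eq_one_of_coprime nu.c7 (by decide)
  obtain ⟨z, hz⟩ := fix_mem hK hq (σ := FiniteField.frobeniusAlgHom F K) (s := u ^ (t * j)) (fun k => by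
    have := FiniteField.orderOf_frobeniusAlgHom F K
    rw [k, orderOf_one] at this; omega) (by
      obtain ⟨m, rfl⟩ : ∃ m, q = 7 * m + 6 := ⟨q / 7, by omega⟩
      have : ∀ x : U1 K, sg (FiniteField.frobeniusAlgHom F K) x = x ^ Fintype.card F := fun x =>
        Subtype.ext (Units.ext (by simp [sg]))
      rw [this, hq, ← pow_mul, show t * j * (7 * m + 6) ^ 2 = 7 * t * (j * (7 * m ^ 2 + 12 * m + 5)) + t * j by ring,
        pow_add, pow_mul, e, one_pow, one_mul])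
  refine ⟨u / io K z, ?_, z, (div_mul_cancel _ _).symm⟩
  rw [MonoidHom.mem_ker, powMonoidHom_apply, hz, div_pow, div_eq_one, ← pow_mul, ← Nat.div_add_mod (t * j) 7, hj,
    add_mul, mul_right_comm, pow_add, pow_mul, e, one_pow, one_mul, one_mul]

theorem surj_T1 (s1 : σ ≠ 1) (hs : s ∈ T1 K t) : ∃ a ∈ T1 K t, sg σ a = s * a := by
  have m : ∀ a ∈ T1 K t, sg σ a / a ∈ T1 K t := fun a ha => div_mem (by
    rw [MonoidHom.mem_ker, powMonoidHom_apply, ← map_pow, show a ^ t = 1 from ha, map_one]) ha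
  obtain ⟨a, ha⟩ := Finite.surjective_of_injective (f := fun a : T1 K t => (⟨_, m a a.2⟩ : T1 K t))
    (fun a b e => Subtype.ext (eq_of_div_eq_one (T1_bot hq nu (div_mem a.2 b.2) (fix_mem hK hq s1 (by
      rw [map_div, div_eq_div_iff_div_eq_div]; exact Subtype.mk.inj e))))) ⟨s, hs⟩
  exact ⟨a, a.2, div_eq_iff_eq_mul.1 (Subtype.mk.inj ha)⟩

end Cfsg.Agent.H6.U7
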