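import Cfsg.Agent.H6.U5.X2
import Cfsg.Agent.H6.U7.X1
import Cfsg.Agent.H1.U7.Fr
import Cfsg.Agent.H1.U7.Ord

/-! Minimal overgroups of the Hall subgroup of the cyclic torus of `SU_7(q)`. -/

set_option autoImplicit false
set_option linter.unusedSectionVars false

namespace Cfsg.Agent.H6.U7

open Module LinearMap Finset H5.U H6.S5 Subgroup U5
open scoped Classical

variable {F K : Type*} [Field F] [Fintype F] [StarRing F] [NStar F] [Field K] [Algebra F K] [Fintype K]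
  [StarRing K] [StarModule F K] [NStar K] {q d t : ℕ} {σ : K →ₐ[F] K} {s : U1 K} {h : HF F K}
  {L : Subgroup (K ≃ₗ[F] K)} {g : K ≃ₗ[F] K}

/-- the set-up -/
structure ML (h : HF F K) (q d t : ℕ) (L : Subgroup (K ≃ₗ[F] K)) : Prop extends Nu q d t where
  adj : ∀ c u v : K, h (c * u) v = h u (star c * v)
  hK : finrank F K = 7
  hq : Fintype.card F = q ^ 2
  hst : ∀ t : F, star t = t ^ q
  le : L ≤ h.SU
  mem : ∀ s ∈ T1 K t, m1 F s ∈ L
  ne : ∃ g ∈ L, ¬ GamL K g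
  min : ∀ L' ≤ L, (∀ s ∈ T1 K t, m1 F s ∈ L') → (∃ g ∈ L', ¬ GamL K g) → L ≤ L'

variable (c : ML h q d t L)
include c

theorem ML.cardT : Nat.card (TT' t L) = t := by
  rw [Nat.card_congr (subgroupOfEquivOfLe (map_le_iff_le_comap.2 c.mem)).toEquiv,
    card_map_of_injective m1_inj, card_T1 c.hK c.hq c.toNu]

theorem ML.ex : ∃ a ∈ T1 K t, (a.1 : K) ∉ (⊥ : Subalgebra F K) := by
  by_contra! k
  obtain ⟨l, -, h7, e⟩ := c.prime
  rw [← card_T1 c.hK c.hq c.toNu, (eq_bot_iff_forall _).2 fun a ha => T1_bot c.hq c.toNu ha (mem_io.2 (k a ha)),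
    card_bot] at e
  have := Nat.le_of_dvd one_pos e; omega

theorem ML.sm (e : GamL K g) : ∃ σ, Sm g σ := by
  obtain ⟨a, -, ha⟩ := c.ex
  obtain ⟨a', e'⟩ := e.1 a.1
  exact (H2.S7.exists_sm c.hK ha e').imp fun _ => And.left

theorem ML.sm' {s' : Kˣ} (hs : s ∈ T1 K t) (s1 : s ≠ 1) (e : g * m1 F s = mu F s' * g) :
    ∃ σ, Sm g σ ∧ (s' = s → σ = 1) := by
  have k : (s.1 : K) ∉ (⊥ : Subalgebra F K) := fun k => s1 (T1_bot c.hq c.toNu hs (mem_io.2 k))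
  obtain ⟨σ, h1, h2⟩ := H2.S7.exists_sm c.hK k (LinearEquiv.congr_fun e)
  exact ⟨σ, h1, fun e => AlgHom.ext (H2.S7.top_of c.hK (S := σ.equalizer 1) k (by rw [e] at h2; exact h2))⟩

theorem ML.lin (hg : g ∈ L) (e : Sm g 1) : ∃ a ∈ T1 K t, ∃ z : U1 F, g = m1 F a * m1 F (io K z) := by
  obtain ⟨a, ha, rfl⟩ := e.lin (c.le hg).2
  have : (a : K) * star (a : K) = 1 := h.ext_right fun x => by
    rw [mul_comm, ← c.adj]; simpa [mu_apply] using (c.le hg).1 x 1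
  obtain ⟨a', h1, z, h2⟩ := dec_T1 c.hK c.hq c.toNu ((norm_iff (u := ⟨a, this⟩) c.hK c.hq c.toNu).1 (mem_K1.1 ha))
  exact ⟨a', h1, z, by rw [← map_mul, ← h2]; rfl⟩

theorem ML.lin' {g : L} (e : Sm g.1 1) : g ∈ TT' t L ⊔ BB L := by
  obtain ⟨a, ha, z, e⟩ := c.lin g.2 e
  have := mul_mem (inv_mem (c.mem a ha)) g.2
  rw [e, inv_mul_cancel_left] at this
  rw [show g = ⟨_, c.mem a ha⟩ * ⟨_, this⟩ from Subtype.ext e]
  exact mul_mem_sup ⟨a, ha, rfl⟩ ⟨z, rfl⟩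

theorem ML.phi : ∃ φ ∈ L, ∃ σ, σ ≠ 1 ∧ Sm φ σ := by
  by_contra! k
  obtain ⟨l, hl, h7, e⟩ := c.prime
  have := Fact.mk hl
  obtain ⟨x, hx⟩ := exists_prime_orderOf_dvd_card' (G := T1 K t) l (by rwa [card_T1 c.hK c.hq c.toNu])
  obtain ⟨g, hg, ng⟩ := c.ne
  obtain ⟨a, rfl⟩ := frob7 c.hK (fun g hg => (c.le hg).2) (x := x.1.1) hl h7 (by rw [orderOf_coe, orderOf_coe, hx])
    (fun e => hl.one_lt.ne (by
      rw [← hx, show x = 1 from Subtype.ext (T1_bot c.hq c.toNu x.2 (mem_io.2 e)), orderOf_one]))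
    (c.mem _ x.2) (fun g hg e => by
      obtain ⟨σ, e⟩ := c.sm e
      obtain rfl : σ = 1 := by_contra fun k' => k g hg σ k' e
      obtain ⟨a, -, e⟩ := e.lin (c.le hg).2
      exact ⟨a, e⟩) hg
  exact ng (Sm.gamL (σ := 1) fun a v => mul_left_comm _ _ _)

theorem ML.hC (a : L) (ha : a ∈ TT' t L) (a1 : a ≠ 1) : centralizer {a} ≤ TT' t L ⊔ BB L := fun g hg => by
  obtain ⟨a, ha'⟩ := a
  obtain ⟨s, hs, rfl⟩ := ha
  obtain ⟨σ, h1, h2⟩ := c.sm' (g := g) (s' := s) hs (by rintro rfl; exact a1 (Subtype.ext (map_one _)))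
    (congrArg Subtype.val (hg _ rfl)).symm
  exact c.lin' (h2 rfl ▸ h1)

theorem ML.seven {z : U1 F} (hz : m1 F (io K z) ∈ L) : z ^ d = 1 := pow_d c.hq c.toNu (by
  have := (det_mu _).symm.trans (mem_SLV'.1 (c.le hz).2)
  exact Subtype.ext (Units.ext (by simpa [← c.hK] using (Algebra.norm_algebraMap (S := K) z.1.1).symm.trans this)))

theorem ML.cop' : (Nat.card (TT' t L)).Coprime (Nat.card (BB L)) := by
  rw [c.cardT]
  refine c.cop.coprime_dvd_right (cardF c.hq ▸ (card_comap_dvd_of_injective _ _ L.subtype_injective).trans ?_)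
  exact card_range_dvd _

theorem sigma_seven (hK : finrank F K = 7) (s1 : σ ≠ 1) : orderOf σ = 7 ∧ ∀ τ : K →ₐ[F] K, ∃ i : ℕ, σ ^ i = τ := by
  have := Fact.mk Nat.prime_seven
  have o := (FiniteField.orderOf_frobeniusAlgHom F K).trans hK
  obtain ⟨⟨i, hi⟩, rfl⟩ := (FiniteField.bijective_frobeniusAlgHom_pow F K).2 σ
  have o' := orderOf_eq_prime (p := 7) (by rw [← pow_mul, mul_comm, pow_mul, ← o, pow_orderOf_eq_one, one_pow]) s1
  refine ⟨o', fun τ => ?_⟩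
  obtain ⟨j, rfl⟩ := (FiniteField.bijective_frobeniusAlgHom_pow F K).2 τ
  obtain ⟨m, -, hm⟩ := Nat.exists_mul_mod_eq_one_of_coprime (n := i) (k := 7) (Nat.coprime_of_lt_prime
    (by rintro rfl; simp at s1) (hK ▸ hi) Nat.prime_seven).symm (by decide)
  exact ⟨m * j, by rw [← pow_mul, ← mul_assoc, pow_mul, ← pow_mod_orderOf _ (i * m), o, hm, pow_one]⟩

theorem ML.hN : Nat.card (normalizer (TT' t L : Set L)) = 7 * Nat.card (TT' t L) * Nat.card (BB L) := by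
  have := Fintype.ofFinite L
  obtain ⟨φ, hφ, σ, s1, e⟩ := c.phi
  obtain ⟨o, ge⟩ := sigma_seven c c.hK s1
  obtain ⟨a, ha, a1⟩ := c.ex
  have n1 : ∀ {g : L} {σ}, Sm g.1 σ → g ∈ normalizer (TT' t L : Set L) := fun {g σ} e =>
    mem_normalizer_fintype (by
      rintro ⟨_, _⟩ ⟨s, hs, rfl⟩
      exact ⟨sg σ s, by rw [SetLike.mem_coe, MonoidHom.mem_ker, powMonoidHom_apply, ← map_pow,
        show s ^ t = 1 from hs, map_one], eq_mul_inv_of_mul_eq (sm_conj e s).symm⟩)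
  have n2 := (normalizer_le_normalizer_sup_of_normalizer_le_left (H := TT' t L) (K := BB L)
    (by rw [normalizer_eq_top_iff.2 (normal_of_le_center BB_le)]; exact le_top))
  have su : ∀ g ∈ TT' t L ⊔ BB L, ∃ a : Kˣ, mu F a = g.1 := fun g hg =>
    (sup_le (by rintro _ ⟨s, -, e⟩; exact ⟨_, e⟩) (by rintro _ ⟨s, e⟩; exact ⟨_, e⟩) :
      _ ≤ (mu F).range.subgroupOf L) hg
  have n3 : ∀ g ∈ normalizer ((TT' t L ⊔ BB L : Subgroup L) : Set L), ∃ σ, Sm g.1 σ := fun g hg => by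
    obtain ⟨b, hb⟩ := su _ ((mem_normalizer_iff.1 hg ⟨_, c.mem a ha⟩).1 (mem_sup_left ⟨a, ha, rfl⟩))
    exact (c.sm' ha (by rintro rfl; exact a1 (one_mem _)) (eq_mul_inv_iff_mul_eq.1 hb).symm).imp fun _ => And.left
  rw [le_antisymm n2 fun g hg => (n3 g hg).elim fun σ => n1, H2.S7.card_norm (ψ := ⟨φ, hφ⟩) (n2 (n1 e))
    (fun k => by
      obtain ⟨b, rfl⟩ := su _ k
      exact s1 (AlgHom.ext fun x => mul_right_cancel₀ b.ne_zero (by
        simpa [mu_apply, mul_comm] using (e x 1).symm)))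
    (c.lin' (by simpa [← o] using e.pow 7)) (fun g hg => by
      obtain ⟨τ, e'⟩ := n3 g hg
      obtain ⟨i, rfl⟩ := ge τ
      exact ⟨i, c.lin' fun b v => (φ ^ i).injective (by simp [e' b, e.pow i b])⟩),
    mul_assoc, mul_comm 7, ← Nat.card_prod]
  have := MonoidHom.noncommCoprod_range (TT' t L).subtype (BB L).subtype
    fun a b => mem_center_iff.1 (BB_le b.2) a
  rw [range_subtype, range_subtype] at this
  rw [← this, ← Nat.card_congr (MonoidHom.ofInjective _).toEquiv]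
  refine (MonoidHom.noncommCoprod_injective _ _ _).2 ⟨subtype_injective _, subtype_injective _, ?_⟩
  simpa using disjoint_of_coprime_natCard c.cop'

theorem ML.hK' (N : Subgroup L) (hN : N.Normal) (e : TT' t L ≤ N) : N = ⊤ := by
  obtain ⟨a, ha, a1⟩ := c.ex
  obtain ⟨g, hg, ng⟩ := c.ne
  refine top_unique fun x _ => (mem_map_iff_mem L.subtype_injective).1 (c.min _ (map_subtype_le N)
    (fun s hs => ⟨⟨_, c.mem s hs⟩, e ⟨s, hs, rfl⟩, rfl⟩) ⟨_, ⟨_, hN.conj_mem' ⟨_, c.mem a ha⟩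
      (e ⟨a, ha, rfl⟩) ⟨g, hg⟩, rfl⟩, fun k => ng ?_⟩ x.2)
  obtain ⟨σ, k⟩ := c.sm k
  have k1 := k.pow t
  have k2 : (g⁻¹ * m1 F a * g) ^ t = 1 := by
    rw [← inv_inv g, inv_inv g⁻¹, conj_pow, ← map_pow, show a ^ t = 1 from ha]; simp
  obtain rfl : σ = 1 := by_contra fun s1 => Nat.prime_seven.coprime_iff_not_dvd.1 c.c7.symm
    ((sigma_seven c c.hK s1).1 ▸ orderOf_dvd_of_pow_eq_one (AlgHom.ext fun x => by
      simpa [k2] using (k1 x 1).symm))
  obtain ⟨b, -, hb⟩ := k.lin (c.le (mul_mem (mul_mem (inv_mem hg) (c.mem a ha)) hg)).2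
  obtain ⟨σ, h1, -⟩ := c.sm' (g := g⁻¹) ha (by rintro rfl; exact a1 (one_mem _)) (eq_mul_inv_of_mul_eq hb.symm)
  exact ⟨h1.gamL.2, h1.gamL.1⟩

theorem ML.hL : (Nat.card L * d : ℤ) ∣ ordU q * Nat.card (BB L) := by
  let Z := (powMonoidHom d : U1 F →* U1 F).ker.map ((m1 F).comp (io K))
  have : Z.Normal := normal_of_le_center (by rintro _ ⟨z, -, rfl⟩; exact cen z)
  have c1 : Nat.card Z = d := by
    refine (card_map_of_injective (f := (m1 F).comp (io K (F := F))) (m1_inj.comp io_inj)).trans ?_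
    rw [IsCyclic.card_powMonoidHom_ker, cardF c.hq]
    exact Nat.gcd_eq_right (by rcases c.hd with ⟨rfl, -⟩ | ⟨rfl, _⟩ <;> omega)
  have c2 : Z.subgroupOf L = BB L := le_antisymm (comap_mono (map_le_range _ _)) (by
    rintro ⟨_, hg⟩ ⟨z, rfl⟩; exact ⟨z, c.seven hg, rfl⟩)
  have c3 := (Z.subgroupOf (L ⊔ Z)).card_mul_index
  have c4 := (Z.subgroupOf L).card_mul_index
  rw [Nat.card_congr (subgroupOfEquivOfLe le_sup_right).toEquiv, c1, ← relIndex, relIndex_sup_right] at c3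
  rw [← c4, c2, ← c2, ← relIndex, c2, Nat.cast_mul, mul_assoc, mul_comm]
  have : FiniteDimensional F K := Module.Finite.of_finite
  refine mul_dvd_mul_right (.trans ?_ (card_SU7 h c.hK c.hq c.hst)) _
  rw [mul_comm, ← Nat.cast_mul, c3, Int.natCast_dvd_natCast]
  refine card_dvd_of_le (sup_le c.le ?_)
  rintro _ ⟨z, hz, rfl⟩
  refine ⟨fun x y => ?_, mem_SLV'.2 ((det_mu _).trans ((norm_iff c.hK c.hq c.toNu).2 ?_))⟩
  · simp only [MonoidHom.comp_apply, m1_io, h.smul_left, h.smul_right, ← mul_assoc,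
      show (z.1 : F) * star (z.1 : F) = 1 from z.2, one_mul]
  · rw [pow_mul, ← map_pow, show z ^ d = 1 from hz, map_one, one_pow]

end Cfsg.Agent.H6.U7
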